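import Cfsg.Agent.Transfer.ThompsonExtremal

/-!
# A 2-group normalising a quaternion group `Q₈` or `Q₁₆` with cyclic centraliser: basics
-/

set_option autoImplicit false

namespace Cfsg.Agent.LyMc

open Subgroup

/-- `N / 2` in `ZMod N` -/
abbrev hf (N : ℕ) : ZMod N := ((N / 2 : ℕ) : ZMod N)

/-- `N / 4` in `ZMod N` -/
abbrev qt (N : ℕ) : ZMod N := ((N / 4 : ℕ) : ZMod N)

/-- `s` acts on the quaternion group as `c ↦ c ^ i`, `j ↦ c ^ m j` -/
structure Act {G : Type*} [Group G] {N : ℕ} (c : ZMod N → G) (j s : G) (i m : ZMod N) : Prop where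
  onc : ∀ x, s * c x * s⁻¹ = c (i * x)
  onj : s * j * s⁻¹ = c m * j

/-- `S` is a Sylow 2-subgroup of `C(t)` normalising the quaternion group `⟨c, j⟩` -/
structure QS {G : Type*} [Group G] (N : ℕ) (S : Subgroup G) (t : G) (c : ZMod N → G) (j : G) :
    Prop where
  hN : N = 4 ∨ N = 8
  pS : IsPGroup 2 S
  cen : ∀ {s}, s ∈ S → Commute s t
  syl : ∀ T : Subgroup G, IsPGroup 2 T → (∀ x ∈ T, Commute x t) →
    ∃ g, Commute g t ∧ ∀ x ∈ T, g * x * g⁻¹ ∈ S
  add : ∀ x y, c (x + y) = c x * c y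
  inj : Function.Injective c
  ch : c (hf N) = t
  jj : j * j = t
  jc : ∀ x, j * c x * j⁻¹ = c (-x)
  cS : ∀ x, c x ∈ S
  jS : j ∈ S
  act : ∀ {s}, s ∈ S → ∃ i m, Act c j s i m
  invR : ∀ {r}, r ∈ S → Act c j r 1 0 → r * r = 1 → r = 1 ∨ r = t
  comR : ∀ {r r'}, r ∈ S → r' ∈ S → Act c j r 1 0 → Act c j r' 1 0 → Commute r r'
  fuse : ∀ b, ∃ g, g * c (qt N) * g⁻¹ = c b * j ∧ ∀ r ∈ S, Act c j r 1 0 → Commute g r
  field : ∀ {f}, f ∈ S → f * f = 1 → Commute f (c (qt N)) → ∀ b, Commute f (c b * j) → f ≠ t →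
    ¬ IsConj t f
  back : ∀ {g u}, Commute g t → (∃ b, u = c b ∨ u = c b * j) → g * u * g⁻¹ ∈ S →
    ∃ b, g * u * g⁻¹ = c b ∨ g * u * g⁻¹ = c b * j

namespace QS
variable {G : Type*} [Group G] {N : ℕ} {S : Subgroup G} {t j : G} {c : ZMod N → G}
  (h : QS N S t c j)
include h

theorem hh : hf N + hf N = 0 := by rcases h.hN with rfl | rfl <;> decide
theorem qq : qt N + qt N = hf N := by rcases h.hN with rfl | rfl <;> decide
theorem h0 : hf N ≠ 0 := by rcases h.hN with rfl | rfl <;> decide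
theorem one_ne : (1 : ZMod N) ≠ -1 := by rcases h.hN with rfl | rfl <;> decide
theorem eq_hf {m : ZMod N} (h1 : m + m = 0) (h2 : m ≠ 0) : m = hf N := by
  rcases h.hN with rfl | rfl <;> revert m <;> decide
theorem even_or (m : ZMod N) : (∃ b, m = 2 * b) ∨ ∃ b, m = 2 * b + 1 := by
  rcases h.hN with rfl | rfl <;> revert m <;> decide
theorem not_even (a b : ZMod N) : 2 * a + 1 ≠ 2 * b := by
  rcases h.hN with rfl | rfl <;> revert a b <;> decide

theorem c0 : c 0 = 1 := by simpa using h.add 0 0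

theorem cneg (x : ZMod N) : c (-x) = (c x)⁻¹ := by
  rw [eq_inv_iff_mul_eq_one, ← h.add, neg_add_cancel, h.c0]

theorem tt : t * t = 1 := by rw [← h.ch, ← h.add, h.hh, h.c0]

theorem ti : t⁻¹ = t := inv_eq_of_mul_eq_one_right h.tt

theorem t1 : t ≠ 1 := fun e => h.h0 (h.inj (by rw [h.ch, e, h.c0]))

theorem tS : t ∈ S := h.ch ▸ h.cS _

theorem ccomm (x y : ZMod N) : Commute (c x) (c y) := by
  rw [Commute, SemiconjBy, ← h.add, ← h.add, add_comm]

theorem jc' (x : ZMod N) : j * c x = c (-x) * j := by rw [← h.jc]; group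

theorem wsq (b : ZMod N) : c b * j * (c b * j) = t := by
  rw [mul_assoc, ← mul_assoc j, h.jc', h.cneg, mul_assoc, mul_inv_cancel_left, h.jj]

theorem aa : c (qt N) * c (qt N) = t := by rw [← h.add, h.qq, h.ch]

theorem amul {s s' : G} {i m i' m' : ZMod N} (a : Act c j s i m) (b : Act c j s' i' m') :
    Act c j (s * s') (i * i') (m + i * m') := by
  refine ⟨fun x => ?_, ?_⟩
  · rw [mul_assoc i, ← a.onc, ← b.onc]; group
  · rw [add_comm, h.add, ← a.onc, mul_assoc (s * c m' * s⁻¹), ← a.onj,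
      show s * s' * j * (s * s')⁻¹ = s * (s' * j * s'⁻¹) * s⁻¹ by group, b.onj]
    group

theorem uniq {s : G} {i m i' m' : ZMod N} (a : Act c j s i m) (b : Act c j s i' m') :
    i = i' ∧ m = m' :=
  ⟨by simpa using h.inj ((a.onc 1).symm.trans (b.onc 1)),
    h.inj (mul_right_cancel (a.onj.symm.trans b.onj))⟩

theorem unit {s : G} {i m : ZMod N} (a : Act c j s i m) : i * i = 1 := by
  have : ∀ x, i * x = 0 → x = 0 := fun x e => h.inj (by
    have := a.onc x
    rw [e, h.c0] at this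
    rw [h.c0]; simpa using this)
  clear a
  rcases h.hN with rfl | rfl <;> revert i <;> decide

theorem aone : Act c j 1 1 0 := ⟨by simp, by simp [h.c0]⟩

theorem ainv {s : G} {i m : ZMod N} (a : Act c j s i m) : Act c j s⁻¹ i (-(i * m)) := by
  have e : ∀ x, s⁻¹ * c x * s⁻¹⁻¹ = c (i * x) := fun x => by
    have := a.onc (i * x)
    rw [← mul_assoc, h.unit a, one_mul] at this
    rw [← this]; group
  refine ⟨e, ?_⟩
  have : j = c (i * m) * (s⁻¹ * j * s⁻¹⁻¹) := by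
    rw [← e]
    calc j = s⁻¹ * (s * j * s⁻¹) * s := by group
      _ = _ := by rw [a.onj]; group
  rw [h.cneg, eq_inv_mul_iff_mul_eq, ← this]

theorem ac (x : ZMod N) : Act c j (c x) 1 (2 * x) := by
  refine ⟨fun y => by rw [(h.ccomm x y).eq, one_mul]; group, ?_⟩
  rw [← h.cneg, mul_assoc, h.jc', neg_neg, two_mul, h.add, mul_assoc]

theorem aj : Act c j j (-1) 0 := ⟨fun x => by rw [h.jc, neg_one_mul], by simp [h.c0]⟩

theorem aw (b : ZMod N) : Act c j (c b * j) (-1) (2 * b) := by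
  simpa using h.amul (h.ac b) h.aj

theorem at' : Act c j t 1 0 := by
  have := h.ac (hf N)
  rwa [two_mul, h.hh, h.ch] at this

theorem onw {s : G} {i m : ZMod N} (a : Act c j s i m) (b : ZMod N) :
    s * (c b * j) * s⁻¹ = c (i * b + m) * j := by
  rw [h.add, mul_assoc (c _), ← a.onj, ← a.onc]; group

theorem sq0 {s : G} {i m : ZMod N} (a : Act c j s i m) (e : s * s = 1) : m + i * m = 0 :=
  (h.uniq (h.amul a a) (e ▸ h.aone)).2

theorem aconj {s x : G} {i m μ : ZMod N} (a : Act c j s i m) (b : Act c j x 1 μ) :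
    Act c j (s * x * s⁻¹) 1 (i * μ) := by
  have := h.amul (h.amul a b) (h.ainv a)
  convert this using 1
  · rw [mul_one, h.unit a]
  · linear_combination m * h.unit a

theorem cR {r : G} (a : Act c j r 1 0) (x : ZMod N) : Commute r (c x) :=
  have _ := h
  mul_inv_eq_iff_eq_mul.1 (by rw [a.onc, one_mul])

theorem jR {r : G} (a : Act c j r 1 0) : Commute r j :=
  mul_inv_eq_iff_eq_mul.1 (by rw [a.onj, h.c0, one_mul])

theorem ofComm {r : G} (h1 : ∀ x, Commute r (c x)) (h2 : Commute r j) : Act c j r 1 0 :=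
  ⟨fun x => by rw [(h1 x).eq, one_mul]; group, by rw [h2.eq, h.c0]; group⟩

theorem aR {r r' : G} (a : Act c j r 1 0) (b : Act c j r' 1 0) : Act c j (r * r') 1 0 := by
  simpa using h.amul a b

theorem aRi {r : G} (a : Act c j r 1 0) : Act c j r⁻¹ 1 0 := by simpa using h.ainv a

theorem root_or {r r' : G} (hr : r ∈ S) (hr' : r' ∈ S) (a : Act c j r 1 0) (b : Act c j r' 1 0)
    (e : r * r = t) (e' : r' * r' = t) : r' = r ∨ r' = r * t := by
  have cm := (h.comR hr hr' a b).inv_left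
  rcases h.invR (S.mul_mem (S.inv_mem hr) hr') (h.aR (h.aRi a) b) (by
    rw [← pow_two, cm.mul_pow, inv_pow, pow_two, pow_two, e, e', inv_mul_cancel]) with h1 | h1
  · exact Or.inl (inv_mul_eq_one.1 h1).symm
  · exact Or.inr (inv_mul_eq_iff_eq_mul.1 h1)

theorem aRpow {r : G} (a : Act c j r 1 0) (n : ℕ) : Act c j (r ^ n) 1 0 :=
  h.ofComm (fun x => (h.cR a x).pow_left n) ((h.jR a).pow_left n)

theorem chain {r : G} (hr : r ∈ S) (a : Act c j r 1 0) :
    r = 1 ∨ r = t ∨ r * r = t ∨ ∃ n : ℕ, r ^ n * r ^ n * (r ^ n * r ^ n) = t := by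
  obtain ⟨e, he⟩ := h.pS ⟨r, hr⟩
  replace he : r ^ 2 ^ e = 1 := congrArg Subtype.val he
  induction e generalizing r with
  | zero => left; simpa using he
  | succ e ih =>
    rcases ih (S.mul_mem hr hr) (h.aR a a) (by rw [← pow_two, ← pow_mul, ← pow_succ', he]) with
      h1 | h1 | h1 | ⟨n, h1⟩
    · exact (h.invR hr a h1).imp id Or.inl
    · exact Or.inr (Or.inr (Or.inl h1))
    · exact Or.inr (Or.inr (Or.inr ⟨1, by simpa using h1⟩))
    · exact Or.inr (Or.inr (Or.inr ⟨2 * n, by rwa [pow_mul, pow_two]⟩))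

theorem eq_t {z : G} (hz : z ∈ S) (hc : ∀ s ∈ S, Commute z s) (z2 : z * z = 1) (z1 : z ≠ 1) :
    z = t :=
  (h.invR hz (h.ofComm (fun x => hc _ (h.cS x)) (hc _ h.jS)) z2).resolve_left z1

theorem hf_of {x : G} {m : ZMod N} (hx : x ∈ S) (a : Act c j x 1 m) (x2 : x * x = 1) (x1 : x ≠ 1)
    (xt : x ≠ t) : m = hf N :=
  h.eq_hf (by simpa using h.sq0 a x2) fun e => (h.invR hx (e ▸ a) x2).elim x1 xt

theorem jx {x : G} (hx : x ∈ S) (a : Act c j x 1 (hf N)) : j * x * j⁻¹ = x * t := by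
  have := a.onj
  rw [h.ch] at this
  calc j * x * j⁻¹ = t * (t * j) * x * j⁻¹ := by rw [← mul_assoc t t, h.tt, one_mul]
    _ = x * t := by rw [← this, (h.cen hx).eq]; group

theorem conj_t {y : G} {m : ZMod N} (hy : y ∈ S) (a : Act c j y (-1) m) :
    c (qt N) * y * (c (qt N))⁻¹ = y * t := by
  have := a.onc (-qt N)
  rw [neg_mul_neg, one_mul, h.cneg] at this
  calc _ = c (qt N) * (y * (c (qt N))⁻¹ * y⁻¹) * y := by group
    _ = _ := by rw [this, h.aa, (h.cen hy).eq]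

variable [Finite G]

theorem exists_sylow : ∃ P : Sylow 2 G, (P : Subgroup G) = S := by
  obtain ⟨P, hP⟩ := h.pS.exists_le_sylow
  refine ⟨P, ?_⟩
  by_contra hne
  have := P.isPGroup'.isNilpotent
  have hlt : S.subgroupOf P < ⊤ := lt_top_iff_ne_top.2 fun e =>
    hne (le_antisymm (subgroupOf_eq_top.1 e) hP)
  obtain ⟨g, hg, hg'⟩ := SetLike.exists_of_lt (Group.normalizerCondition_of_isNilpotent _ hlt)
  have hn : ∀ s ∈ S, (g : G) * s * (g : G)⁻¹ ∈ S := fun s hs =>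
    (mem_normalizer_iff.1 hg ⟨s, hP hs⟩).1 hs
  have hn' : ∀ s ∈ S, (g : G)⁻¹ * s * (g : G) ∈ S := fun s hs => by
    have : ((g : G)⁻¹ * s * (g : G)⁻¹⁻¹) ∈ S := (mem_normalizer_iff.1 (inv_mem hg) ⟨s, hP hs⟩).1 hs
    simpa using this
  have e := h.eq_t (hn t h.tS) (fun s hs => by
    have := (h.cen (hn' s hs)).eq
    show _ = _
    calc _ = g * (t * ((g : G)⁻¹ * s * g)) * (g : G)⁻¹ := by group
      _ = _ := by rw [← this]; group) (by rw [conj_mul, h.tt]; group) (by simpa using h.t1)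
  obtain ⟨k, -, hk⟩ := h.syl ((P : Subgroup G) ⊓ centralizer {t}) (P.isPGroup'.to_inf_left)
    fun x hx => mem_centralizer_singleton_iff.1 hx.2
  have h1 : S ≤ (P : Subgroup G) ⊓ centralizer {t} := fun s hs =>
    ⟨hP hs, mem_centralizer_singleton_iff.2 (h.cen hs)⟩
  have h2 : Nat.card ↥((P : Subgroup G) ⊓ centralizer {t}) ≤ Nat.card S :=
    Nat.card_le_card_of_injective (fun x => ⟨_, hk x x.2⟩) fun x y e =>
      Subtype.ext (by simpa using e)
  have h3 := eq_of_le_of_card_ge h1 h2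
  apply hg'
  show (g : G) ∈ S
  rw [h3]
  exact ⟨g.2, mem_centralizer_singleton_iff.2 (mul_inv_eq_iff_eq_mul.1 e)⟩

theorem odd_index : Odd S.index := by
  obtain ⟨P, hP⟩ := h.exists_sylow
  exact hP ▸ Transfer.odd_index_sylow P

omit [Finite G] in
/-- an element conjugate to `t` can be moved to `t` along with its centraliser in `S` -/
theorem exists_move {x : G} (hx : IsConj t x) :
    ∃ g, g * x * g⁻¹ = t ∧ ∀ s ∈ S, Commute s x → g * s * g⁻¹ ∈ S := by
  obtain ⟨g, hg⟩ := isConj_iff.1 hx.symm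
  obtain ⟨k, k1, k2⟩ := h.syl ((S ⊓ centralizer {x}).map (MulAut.conj g).toMonoidHom)
    (h.pS.to_inf_left.map _) (by
      rintro _ ⟨s, hs, rfl⟩
      rw [← hg]
      exact (show Commute s x from mem_centralizer_singleton_iff.1 hs.2).conj g)
  refine ⟨k * g, ?_, fun s hs c => ?_⟩
  · rw [show k * g * x * (k * g)⁻¹ = k * (g * x * g⁻¹) * k⁻¹ by group, hg, k1.eq]; group
  · have := k2 _ ⟨s, ⟨hs, mem_centralizer_singleton_iff.2 c⟩, rfl⟩
    convert this using 1
    simp [mul_assoc]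

end QS

end Cfsg.Agent.LyMc
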