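import Cfsg.Agent.LyMc.Qs1

/-!
# No involutions of field type; the action on the elements of order four of the centraliser
-/

set_option autoImplicit false

namespace Cfsg.Agent.LyMc

open Subgroup

namespace QS
variable {G : Type*} [Group G] {N : ℕ} {S : Subgroup G} {t j : G} {c : ZMod N → G}
  (h : QS N S t c j)
include h

theorem ar1 {i m : ZMod N} (h1 : i * i = 1) (h2 : i ≠ 1) (h3 : i ≠ -1) (h4 : m + i * m = 0) :
    (i * qt N = qt N ∧ ∃ b, i * b + m = b) ∨
      ∃ b, i * b + m - b = hf N ∧ -i * qt N = qt N ∧ ∃ b', -i * b' + (m + i * (2 * b)) = b' := by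
  rcases h.hN with rfl | rfl <;> revert i m <;> decide

theorem ar2 {i i' : ZMod N} (h1 : i * i = 1) (h2 : i ≠ 1) (h3 : i ≠ -1) (k1 : i' * i' = 1) :
    (i' = 1 ∨ i' = -1) ↔ ¬ (i' * i = 1 ∨ i' * i = -1) := by
  rcases h.hN with rfl | rfl <;> revert i i' <;> decide

theorem ar3 {i1 m1 i2 m2 m mu : ZMod N} (h1 : i1 * i1 = 1) (h2 : i2 * i2 = 1)
    (e1 : m + -1 * m1 = m1 + i1 * m) (e2 : m + -1 * m2 = m2 + i2 * m)
    (e : m1 + i1 * m2 = mu + 1 * (m2 + i2 * m1)) : mu = 0 := by
  have key : ∀ i1 m1 i2 m2 m : ZMod N, i1 * i1 = 1 → i2 * i2 = 1 → m + -1 * m1 = m1 + i1 * m →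
      m + -1 * m2 = m2 + i2 * m → m1 + i1 * m2 = m2 + i2 * m1 := by
    rcases h.hN with rfl | rfl <;> decide +kernel
  rw [key i1 m1 i2 m2 m h1 h2 e1 e2] at e
  simpa using e

theorem aw_eq (b : ZMod N) : c (qt N) * (c b * j) = t * (c b * j * c (qt N)) := by
  rw [mul_assoc, h.jc', ← h.ch, ← mul_assoc, ← mul_assoc, ← mul_assoc, ← h.add, ← h.add, ← h.add,
    ← h.qq]
  congr 2; ring

/-- the subgroup inducing `± 1` on the cyclic group -/
def DD : Subgroup G where
  carrier := {s | s ∈ S ∧ ∃ i m, Act c j s i m ∧ (i = 1 ∨ i = -1)}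
  mul_mem' := by
    rintro _ _ ⟨h1, i, m, a, e⟩ ⟨h2, i', m', a', e'⟩
    refine ⟨S.mul_mem h1 h2, _, _, h.amul a a', ?_⟩
    rcases e with rfl | rfl <;> rcases e' with rfl | rfl <;> simp
  one_mem' := ⟨S.one_mem, _, _, h.aone, Or.inl rfl⟩
  inv_mem' := by
    rintro _ ⟨h1, i, m, a, e⟩
    exact ⟨S.inv_mem h1, _, _, h.ainv a, e⟩

theorem mem_DD {s : G} {i m : ZMod N} (hs : s ∈ S) (a : Act c j s i m) :
    s ∈ h.DD ↔ i = 1 ∨ i = -1 :=
  ⟨fun ⟨_, _, _, a', e⟩ => (h.uniq a a').1 ▸ e, fun e => ⟨hs, _, _, a, e⟩⟩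

variable [Finite G] (h2 : ∀ M : Subgroup G, M.Normal → M.index ≠ 2)
include h2

theorem nf_aux {f : G} {i m b : ZMod N} (hf' : f ∈ S) (f2 : f * f = 1) (a : Act c j f i m)
    (i1 : i ≠ 1) (i2 : i ≠ -1) (e1 : i * qt N = qt N) (e2 : i * b + m = b) : False := by
  have ca : Commute f (c (qt N)) := mul_inv_eq_iff_eq_mul.1 (by rw [a.onc, e1])
  have cw : Commute f (c b * j) := mul_inv_eq_iff_eq_mul.1 (by rw [h.onw a, e2])
  have ft : f ≠ t := fun e => i1 (h.uniq a (e ▸ h.at')).1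
  have f1 : f ≠ 1 := fun e => i1 (h.uniq a (e ▸ h.aone)).1
  have nc := h.field hf' f2 ca b cw ft
  have hD : h.DD.relIndex S = 2 := by
    rw [Subgroup.relIndex, index_eq_two_iff]
    refine ⟨⟨f, hf'⟩, fun s => ?_⟩
    obtain ⟨i', m', a'⟩ := h.act s.2
    rw [mem_subgroupOf, mem_subgroupOf, coe_mul, h.mem_DD s.2 a',
      h.mem_DD (S.mul_mem s.2 hf') (h.amul a' a), h.ar2 (h.unit a) i1 i2 (h.unit a')]
    tauto
  rcases Transfer.thompson_transfer_extremal h.odd_index
    (show h.DD ≤ S from fun s hs => hs.1) hD (u := f)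
    (by rw [pow_two, f2]) (T := S ⊓ centralizer {f}) h.pS.to_inf_left
    (fun s hs => mem_centralizer_singleton_iff.1 hs.2) with ⟨M, k1, k2, -⟩ | ⟨g, ⟨k1, i', m', a', k2⟩, k3⟩
  · exact h2 M k1 k2
  have mem : ∀ {s}, s ∈ S → Commute f s → g * s * g⁻¹ ∈ S := fun {s} hs cs =>
    k3 ⟨s, ⟨hs, mem_centralizer_singleton_iff.2 cs.symm⟩, rfl⟩
  have hp := mem (h.cS _) ca
  have hq := mem (S.mul_mem (h.cS b) h.jS) cw
  have hu := mem h.tS (h.cen hf')
  have cp := ca.conj g
  have cq := cw.conj g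
  have cu := (h.cen hf').conj g
  have rel : g * c (qt N) * g⁻¹ * (g * (c b * j) * g⁻¹) =
      g * t * g⁻¹ * (g * (c b * j) * g⁻¹ * (g * c (qt N) * g⁻¹)) := by
    rw [conj_mul, h.aw_eq, conj_mul, conj_mul]
  have g2 : g * f * g⁻¹ * (g * f * g⁻¹) = 1 := by rw [conj_mul, f2]; group
  have g1 : g * f * g⁻¹ ≠ 1 := by simpa using f1
  have nc' : ¬ IsConj t (g * f * g⁻¹) := fun e => nc (e.trans (isConj_iff.2 ⟨g, rfl⟩).symm)
  have gt : g * f * g⁻¹ ≠ t := fun e => nc' (e ▸ IsConj.refl _)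
  have ct : IsConj t (g * t * g⁻¹) := isConj_iff.2 ⟨g, rfl⟩
  by_cases hut : g * t * g⁻¹ = t
  · have cg : Commute g t := mul_inv_eq_iff_eq_mul.1 hut
    obtain ⟨x, hx⟩ := h.back cg ⟨_, Or.inl rfl⟩ hp
    obtain ⟨y, hy⟩ := h.back cg ⟨b, Or.inr rfl⟩ hq
    rw [hut] at rel
    generalize g * f * g⁻¹ = f' at *
    generalize g * c (qt N) * g⁻¹ = p at *
    generalize g * (c b * j) * g⁻¹ = q at *
    have ncm : ¬ Commute p q := fun e => h.t1 (by rw [e.eq] at rel; simpa using rel)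
    have fc : ∀ x, Commute f' (c x) → i' * x = x := fun x e =>
      h.inj (by rw [← a'.onc, e.eq]; group)
    have fw : ∀ x, Commute f' (c x * j) → i' * x + m' = x := fun x e =>
      h.inj (mul_right_cancel (b := j) (by rw [← h.onw a', e.eq]; group))
    have cw : ∀ x y, -x = x → Commute (c x) (c y * j) := fun x y e =>
      (h.ccomm x y).mul_right (by rw [Commute, SemiconjBy, h.jc', e])
    rcases k2 with rfl | rfl
    · have := h.hf_of k1 a' g2 g1 gt
      rcases hx with rfl | rfl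
      · rcases hy with rfl | rfl
        · exact ncm (h.ccomm x y)
        · exact h.h0 (by simpa [this] using fw y cq)
      · exact h.h0 (by simpa [this] using fw x cp)
    · rcases hx with rfl | rfl <;> rcases hy with rfl | rfl
      · exact ncm (h.ccomm x y)
      · exact ncm (cw x y (by simpa using fc x cp))
      · exact ncm (cw y x (by simpa using fc y cq)).symm
      · apply ncm
        have e1 := fw x cp
        have e2 := fw y cq
        rw [Commute, SemiconjBy, mul_assoc, mul_assoc, ← mul_assoc j, ← mul_assoc j, h.jc', h.jc',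
          ← mul_assoc, ← mul_assoc, ← mul_assoc, ← mul_assoc, ← h.add, ← h.add]
        congr 3
        linear_combination e2 - e1
  · obtain ⟨i1, m1, a1⟩ := h.act hp
    obtain ⟨i2, m2, a2⟩ := h.act hq
    obtain ⟨iu, mu, au⟩ := h.act hu
    have u2 : g * t * g⁻¹ * (g * t * g⁻¹) = 1 := by rw [conj_mul, h.tt]; group
    have u1 : g * t * g⁻¹ ≠ 1 := by simpa using h.t1
    generalize g * f * g⁻¹ = f' at *
    generalize g * c (qt N) * g⁻¹ = p at *
    generalize g * (c b * j) * g⁻¹ = q at *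
    generalize g * t * g⁻¹ = u at *
    obtain ⟨r1, r2⟩ := h.uniq (h.amul a1 a2) (rel ▸ h.amul au (h.amul a2 a1))
    obtain rfl : iu = 1 := by
      have := h.unit (h.amul a1 a2)
      linear_combination (-(i1 * i2)) * r1 - (iu - 1) * this
    obtain rfl := h.hf_of hu au u2 u1 hut
    rcases k2 with rfl | rfl
    · obtain rfl := h.hf_of k1 a' g2 g1 gt
      have aR := h.amul au a'
      rw [one_mul, one_mul, h.hh] at aR
      rcases h.invR (S.mul_mem hu k1) aR (by
        rw [← pow_two, cu.symm.mul_pow, pow_two, pow_two, u2, g2, one_mul]) with e | e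
      · rw [mul_eq_one_iff_eq_inv', inv_eq_of_mul_eq_one_right u2] at e
        exact nc' (e ▸ ct)
      · have e' : f' = u * t := by rw [← e, ← mul_assoc, u2, one_mul]
        exact nc' (ct.trans (isConj_iff.2 ⟨j, by rw [h.jx hu au, e']⟩))
    · exact h.h0 (h.ar3 (h.unit a1) (h.unit a2) (h.uniq (h.amul a' a1) (cp.eq ▸ h.amul a1 a')).2
        (h.uniq (h.amul a' a2) (cq.eq ▸ h.amul a2 a')).2 r2)

/-- there is no involution of field type -/
theorem nf {f : G} {i m : ZMod N} (hf' : f ∈ S) (f2 : f * f = 1) (a : Act c j f i m) :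
    i = 1 ∨ i = -1 := by
  by_contra hn
  push Not at hn
  rcases h.ar1 (h.unit a) hn.1 hn.2 (h.sq0 a f2) with ⟨e1, b, e2⟩ | ⟨b, e0, e1, b', e2⟩
  · exact h.nf_aux h2 hf' f2 a hn.1 hn.2 e1 e2
  · have a' := h.amul a (h.aw b)
    rw [mul_neg_one] at a'
    refine h.nf_aux h2 (S.mul_mem hf' (S.mul_mem (h.cS b) h.jS)) ?_ a'
      (fun e => hn.2 (by rw [← e, neg_neg])) (fun e => hn.1 (neg_inj.1 e)) e1 e2
    calc _ = f * (c b * j) * f⁻¹ * (f * f) * (c b * j) := by group
      _ = c (i * b + m) * (j * c b) * j := by rw [h.onw a, f2]; group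
      _ = 1 := by
        rw [h.jc', ← mul_assoc, ← h.add, ← sub_eq_add_neg, e0, h.ch, mul_assoc, h.jj, h.tt]

/-- elements not interchanging the two quaternion subgroups centralise the roots of `t` in `R` -/
theorem comm_root {r s : G} {i b : ZMod N} (hr : r ∈ S) (ar : Act c j r 1 0) (r2 : r * r = t)
    (hs : s ∈ S) (a : Act c j s i (2 * b)) : Commute s r := by
  have conj : ∀ {s}, s ∈ S → s * r * s⁻¹ = r ∨ s * r * s⁻¹ = r * t := fun {s} hs => by
    obtain ⟨i, m, a⟩ := h.act hs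
    exact h.root_or hr (S.mul_mem (S.mul_mem hs hr) (S.inv_mem hs)) ar
      (by simpa using h.aconj a ar) r2 (by rw [conj_mul, r2, (h.cen hs).eq]; group)
  have key : ∀ {g i}, g ∈ S → Act c j g i 0 → Commute g r := by
    intro g i hg a
    by_cases i1 : i = 1
    · exact h.comR hg hr (i1 ▸ a) ar
    by_cases i2 : i = -1
    · have a' := h.amul a h.aj
      rw [i2, neg_mul_neg, one_mul, mul_zero, add_zero] at a'
      have := (h.comR (S.mul_mem hg h.jS) hr a' ar).mul_left (h.jR ar).symm.inv_left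
      rwa [mul_inv_cancel_right] at this
    have a2 := h.amul a a
    rw [h.unit a, mul_zero, add_zero] at a2
    have cj : Commute g j := mul_inv_eq_iff_eq_mul.1 (by rw [a.onj, h.c0, one_mul])
    have fin : ∀ n : ℕ, (g * g) ^ n * (g * g) ^ n = t → Commute g r := fun n e => by
      have cg : Commute g ((g * g) ^ n) := ((Commute.refl g).mul_right (Commute.refl g)).pow_right n
      rcases h.root_or (S.pow_mem (S.mul_mem hg hg) n) hr (h.aRpow a2 n) ar e r2 with e1 | e1
      · exact e1 ▸ cg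
      · exact e1 ▸ cg.mul_right (h.cen hg)
    rcases h.chain (S.mul_mem hg hg) a2 with e | e | e | ⟨n, e⟩
    · exact ((h.nf h2 hg e a).elim i1 i2).elim
    · have a' := h.amul a h.aj
      rcases h.nf h2 (S.mul_mem hg h.jS) (by
        rw [← pow_two, cj.mul_pow, pow_two, pow_two, e, h.jj, h.tt]) a' with e1 | e1
      · exact (i2 (by linear_combination -e1)).elim
      · exact (i1 (by linear_combination -e1)).elim
    · exact fin 1 (by simpa using e)
    · exact fin (n * 2) (by rwa [pow_mul, pow_two])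
  have a' := h.amul a (h.ac (-(i * b)))
  rw [mul_one, show 2 * b + i * (2 * -(i * b)) = 0 by linear_combination (-2 * b) * h.unit a] at a'
  have := (key (S.mul_mem hs (h.cS _)) a').mul_left (h.cR ar (-(i * b))).symm.inv_left
  rwa [mul_inv_cancel_right] at this

end QS

end Cfsg.Agent.LyMc
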