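import Cfsg.Agent.LyMc.Qs2

/-!
# No elementary abelian subgroup of order eight
-/

set_option autoImplicit false

namespace Cfsg.Agent.LyMc

open Subgroup

/-- `u`, `v` and `t` generate an elementary abelian group of order eight -/
structure E3 {G : Type*} [Group G] (S : Subgroup G) (t u v : G) : Prop where
  uS : u ∈ S
  vS : v ∈ S
  u2 : u * u = 1
  v2 : v * v = 1
  cm : Commute u v
  u1 : u ≠ 1
  ut : u ≠ t
  v1 : v ≠ 1
  vt : v ≠ t
  w1 : u * v ≠ 1
  wt : u * v ≠ t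

namespace QS
variable {G : Type*} [Group G] {N : ℕ} {S : Subgroup G} {t j : G} {c : ZMod N → G}
  (h : QS N S t c j)
include h

theorem ar4 {i m : ZMod N} (h1 : i * i = 1)
    (e : (∃ b, m = 2 * b) ∨ i * qt N + hf N = qt N) : ((N / 4 : ℕ) : ZMod N) * (m + i * m) = 0 := by
  rcases h.hN with rfl | rfl <;> revert i m <;> decide

theorem apow {s : G} {m : ZMod N} (a : Act c j s 1 m) (n : ℕ) : Act c j (s ^ n) 1 (n * m) := by
  induction n with
  | zero => simpa using h.aone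
  | succ n ih =>
    have := h.amul ih a
    rw [← pow_succ, one_mul, one_mul] at this
    convert this using 1
    push_cast; ring

theorem cpow : (c 1 * c 1) ^ (N / 4) = t := by
  have e : ∀ n : ℕ, (c 1 * c 1) ^ n = c (2 * n) := fun n => by
    induction n with
    | zero => simp [h.c0]
    | succ n ih => rw [pow_succ, ih, ← h.add, ← h.add]; congr 1; push_cast; ring
  rw [e, ← h.ch, two_mul, h.qq]

/-- the root of `t` in `R` attached to an involution `x` -/
theorem root {x : G} (hx : x ∈ S) (a : Act c j x 1 (hf N)) (x2 : x * x = 1) :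
    ∃ r ∈ S, Act c j r 1 0 ∧ r * r = t ∧ x = c (qt N) * r := by
  have cx : Commute x (c (-qt N)) := mul_inv_eq_iff_eq_mul.1 (by rw [a.onc, one_mul])
  refine ⟨c (-qt N) * x, S.mul_mem (h.cS _) hx, ?_, ?_, by rw [h.cneg]; group⟩
  · convert h.amul (h.ac (-qt N)) a using 1
    · simp
    · rw [← h.qq]; ring
  · rw [← pow_two, cx.symm.mul_pow, pow_two x, x2, mul_one, h.cneg, inv_pow, pow_two, h.aa, h.ti]

theorem hf_or {x y : G} (hx : x ∈ S) (a : Act c j x 1 (hf N)) (x2 : x * x = 1) (hy : y ∈ S)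
    (b : Act c j y 1 (hf N)) (y2 : y * y = 1) : y = x ∨ y = x * t := by
  obtain ⟨r, r1, r2, r3, rfl⟩ := h.root hx a x2
  obtain ⟨r', s1, s2, s3, rfl⟩ := h.root hy b y2
  rcases h.root_or r1 s1 r2 s2 r3 s3 with rfl | rfl
  · exact Or.inl rfl
  · exact Or.inr (mul_assoc _ _ _).symm

theorem conj_hf {x y : G} (hx : x ∈ S) (a : Act c j x 1 (hf N)) (x2 : x * x = 1) (hy : y ∈ S)
    (b : Act c j y 1 (hf N)) (y2 : y * y = 1) : IsConj x y := by
  rcases h.hf_or hx a x2 hy b y2 with rfl | rfl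
  · exact IsConj.refl _
  · exact isConj_iff.2 ⟨j, h.jx hx a⟩

/-- an element inverting `c` and interchanging the quaternion subgroups -/
theorem conj_odd {y : G} {m : ZMod N} (a : Act c j y (-1) (2 * m + 1)) (b : ZMod N) :
    IsConj y (c b * y) := by
  have e1 : ∀ (y : G) (m : ZMod N), Act c j y (-1) m → ∀ x, IsConj y (c (2 * x) * y) :=
    fun y m a x => isConj_iff.2 ⟨c x, by
      have := a.onc (-x)
      rw [neg_mul_neg, one_mul, h.cneg] at this
      rw [two_mul, h.add, mul_assoc (c x) (c x)]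
      nth_rewrite 4 [← this]
      group⟩
  rcases h.even_or b with ⟨x, rfl⟩ | ⟨x, rfl⟩
  · exact e1 y _ a x
  · have e2 : j * y * j⁻¹ = c (-(2 * m + 1)) * y := by
      rw [h.cneg, eq_inv_mul_iff_mul_eq, ← mul_assoc, ← mul_assoc, ← a.onj]; group
    have := e1 _ _ (one_mul (-1 : ZMod N) ▸ h.amul (h.ac (-(2 * m + 1))) a) (x + m + 1)
    rw [← mul_assoc, ← h.add, show 2 * (x + m + 1) + -(2 * m + 1) = 2 * x + 1 by ring] at this
    exact (isConj_iff.2 ⟨j, e2⟩).trans this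

theorem split_c {y : G} {b : ZMod N} (hy : y ∈ S) (a : Act c j y 1 (2 * b)) :
    ∃ r ∈ S, Act c j r 1 0 ∧ y = c b * r :=
  ⟨(c b)⁻¹ * y, S.mul_mem (S.inv_mem (h.cS b)) hy, by simpa using h.amul (h.ainv (h.ac b)) a,
    by group⟩

theorem split_w {y : G} {b : ZMod N} (hy : y ∈ S) (a : Act c j y (-1) (2 * b)) :
    ∃ r ∈ S, Act c j r 1 0 ∧ y = c b * j * r :=
  ⟨(c b * j)⁻¹ * y, S.mul_mem (S.inv_mem (S.mul_mem (h.cS b) h.jS)) hy,
    by simpa using h.amul (h.ainv (h.aw b)) a, by group⟩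

/-- an inner involution inverting `c` is conjugate to `x` -/
theorem conj_even {x y : G} {b : ZMod N} (hx : x ∈ S) (a : Act c j x 1 (hf N)) (x2 : x * x = 1)
    (hy : y ∈ S) (a' : Act c j y (-1) (2 * b)) (y2 : y * y = 1) : IsConj x y := by
  obtain ⟨r, r1, r2, rfl⟩ := h.split_w hy a'
  have cm : Commute (c b * j) r := ((h.cR r2 b).mul_right (h.jR r2)).symm
  have r3 : r * r = t := by
    rw [← pow_two, cm.mul_pow, pow_two, pow_two, h.wsq] at y2
    rw [eq_inv_of_mul_eq_one_right y2, h.ti]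
  obtain ⟨g, g1, g2⟩ := h.fuse b
  have a2 := h.amul (h.ac (qt N)) r2
  rw [mul_one, mul_zero, add_zero, two_mul, h.qq] at a2
  refine (h.conj_hf hx a x2 (S.mul_mem (h.cS _) r1) a2 ?_).trans (isConj_iff.2 ⟨g, ?_⟩)
  · rw [← pow_two, (h.cR r2 _).symm.mul_pow, pow_two, pow_two, h.aa, r3, h.tt]
  · rw [← conj_mul, g1, (g2 r r1 r2).eq]; group

variable [Finite G] (h2 : ∀ M : Subgroup G, M.Normal → M.index ≠ 2)
include h2

theorem e3_hf {u v : G} (E : E3 S t u v) : Act c j u 1 (hf N) ∧ (∃ m, Act c j v (-1) m) ∨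
    Act c j v 1 (hf N) ∧ (∃ m, Act c j u (-1) m) ∨
    Act c j (u * v) 1 (hf N) ∧ (∃ m, Act c j u (-1) m) := by
  obtain ⟨i, m, a⟩ := h.act E.uS
  obtain ⟨i', m', a'⟩ := h.act E.vS
  have w2 : u * v * (u * v) = 1 := by
    rw [← pow_two, E.cm.mul_pow, pow_two, pow_two, E.u2, E.v2, one_mul]
  have aw := h.amul a a'
  rcases h.nf h2 E.uS E.u2 a with rfl | rfl <;> rcases h.nf h2 E.vS E.v2 a' with rfl | rfl
  · obtain rfl := h.hf_of E.uS a E.u2 E.u1 E.ut
    obtain rfl := h.hf_of E.vS a' E.v2 E.v1 E.vt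
    rw [one_mul, one_mul, h.hh] at aw
    exact ((h.invR (S.mul_mem E.uS E.vS) aw w2).elim E.w1 E.wt).elim
  · exact Or.inl ⟨h.hf_of E.uS a E.u2 E.u1 E.ut ▸ a, _, a'⟩
  · exact Or.inr (Or.inl ⟨h.hf_of E.vS a' E.v2 E.v1 E.vt ▸ a', _, a⟩)
  · rw [neg_mul_neg, one_mul] at aw
    exact Or.inr (Or.inr ⟨h.hf_of (S.mul_mem E.uS E.vS) aw w2 E.w1 E.wt ▸ aw, _, a⟩)

section
variable {r f : G} (hr : r ∈ S) (ar : Act c j r 1 0) (r2 : r * r = t) (hf' : f ∈ S)
  (fr : f * r * f⁻¹ = r * t)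
include hr ar r2 hf' fr

theorem inv_root {s : G} {i m : ZMod N} (hs : s ∈ S) (a : Act c j s i (2 * m + 1)) :
    s * r * s⁻¹ = r * t := by
  obtain ⟨i', m', a'⟩ := h.act hf'
  rcases h.even_or m' with ⟨b, rfl⟩ | ⟨b, rfl⟩
  · have := (h.comm_root h2 hr ar r2 hf' a').eq
    rw [this, mul_inv_cancel_right] at fr
    exact absurd (by simpa using fr) h.t1
  · have a2 := h.amul a (h.ainv a')
    obtain ⟨b', hb⟩ : ∃ b', 2 * m + 1 + i * -(i' * (2 * b + 1)) = 2 * b' := by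
      have := h.unit (h.amul a a')
      have e : ∀ m b k : ZMod N, k * k = 1 → ∃ b', 2 * m + 1 - k * (2 * b + 1) = 2 * b' := by
        rcases h.hN with rfl | rfl <;> decide +kernel
      obtain ⟨b', hb⟩ := e m b _ this
      exact ⟨b', by rw [← hb]; ring⟩
    rw [hb] at a2
    have := (h.comm_root h2 hr ar r2 (S.mul_mem hs (S.inv_mem hf')) a2).mul_right
      (h.cen (S.mul_mem hs (S.inv_mem hf')))
    calc _ = s * f⁻¹ * (f * r * f⁻¹) * (s * f⁻¹)⁻¹ := by group
      _ = _ := by rw [fr, this.eq]; group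

theorem not_conj : ¬ IsConj t (c (qt N) * r) := by
  intro hc
  set x := c (qt N) * r with hx
  have xS : x ∈ S := S.mul_mem (h.cS _) hr
  have ax := h.amul (h.ac (qt N)) ar
  rw [mul_one, mul_zero, add_zero, two_mul, h.qq] at ax
  have x2 : x * x = 1 := by
    rw [← pow_two, (h.cR ar _).symm.mul_pow, pow_two, pow_two, h.aa, r2, h.tt]
  obtain ⟨g, g1, g2⟩ := h.exists_move hc
  let T : Subgroup G := S ⊓ centralizer {x}
  have hT : T.relIndex S = 2 := by
    rw [Subgroup.relIndex, index_eq_two_iff]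
    refine ⟨⟨j, h.jS⟩, fun s => ?_⟩
    obtain ⟨i, m, a⟩ := h.act s.2
    have a1 := h.aconj a ax
    have e : i * hf N = hf N := by
      have := h.unit a
      clear a a1
      rcases h.hN with rfl | rfl <;> revert i <;> decide
    rw [e] at a1
    have m1 : ∀ s ∈ S, s ∈ T ↔ s * x * s⁻¹ = x := fun s hs => by
      rw [mem_inf, and_iff_right hs, mem_centralizer_singleton_iff, mul_inv_eq_iff_eq_mul]
    rw [mem_subgroupOf, mem_subgroupOf, coe_mul, m1 _ s.2, m1 _ (S.mul_mem s.2 h.jS),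
      show (s : G) * j * x * (s * j)⁻¹ = s * (j * x * j⁻¹) * (s : G)⁻¹ by group, h.jx xS ax,
      ← conj_mul, (h.cen s.2).eq, mul_inv_cancel_right]
    have n1 : x * t ≠ x := by simpa using h.t1
    rcases h.hf_or xS ax x2 (S.mul_mem (S.mul_mem s.2 xS) (S.inv_mem s.2)) a1
      (by rw [conj_mul, x2]; group) with e1 | e1
    · rw [e1]; exact Or.inr ⟨rfl, n1⟩
    · rw [e1, mul_assoc, h.tt, mul_one]; exact Or.inl ⟨rfl, n1⟩
  have hle : T.map (MulAut.conj g).toMonoidHom ≤ S := by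
    rintro _ ⟨s, hs, rfl⟩
    exact g2 s hs.1 (mem_centralizer_singleton_iff.1 hs.2)
  have hT' : (T.map (MulAut.conj g).toMonoidHom).relIndex S = 2 := by
    have e1 := relIndex_mul_index hle
    have e2 := relIndex_mul_index (show T ≤ S from inf_le_left)
    rw [show (T.map (MulAut.conj g).toMonoidHom).index = T.index from
      index_map_equiv T (MulAut.conj g), ← e2, hT] at e1
    exact Nat.eq_of_mul_eq_mul_right (Nat.pos_of_ne_zero FiniteIndex.index_ne_zero) e1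
  have hN := normal_of_index_eq_two hT'
  have cT : c 1 ∈ T := ⟨h.cS 1, mem_centralizer_singleton_iff.2
    (mul_inv_eq_iff_eq_mul.1 (by rw [ax.onc, one_mul])).symm⟩
  have e := h.eq_t (g2 t h.tS (h.cen xS).symm) (fun s hs => by
    obtain ⟨c', k1, k2⟩ := hN.conj_mem ⟨g * c 1 * g⁻¹, hle ⟨_, cT, rfl⟩⟩ ⟨_, cT, rfl⟩ ⟨s, hs⟩
    replace k2 : g * c' * g⁻¹ = s * (g * c 1 * g⁻¹) * s⁻¹ := k2
    obtain ⟨i, m, a⟩ := h.act k1.1
    have a1 := h.apow (show Act c j (c' * c') 1 _ from h.unit a ▸ h.amul a a) (N / 4)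
    rw [h.ar4 (h.unit a) (by
      rcases h.even_or m with e | ⟨b, rfl⟩
      · exact Or.inl e
      · right
        have e1 := h.inv_root h2 hr ar r2 hf' fr k1.1 a
        have e2 : c' * x * c'⁻¹ = x := mul_inv_eq_iff_eq_mul.2
          (mem_centralizer_singleton_iff.1 k1.2)
        rw [hx, ← conj_mul, a.onc, e1, (h.cen hr).eq, ← mul_assoc, ← h.ch, ← h.add] at e2
        exact h.inj (mul_right_cancel e2))] at a1
    have e3 : g * (c' * c') ^ (N / 4) * g⁻¹ = s * (g * t * g⁻¹) * s⁻¹ := by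
      rw [← conj_pow, ← conj_mul, k2, conj_mul, conj_pow, conj_mul, conj_pow, h.cpow]
    have e4 : (c' * c') ^ (N / 4) = g⁻¹ * (s * (g * t * g⁻¹) * s⁻¹) * g := by rw [← e3]; group
    rcases h.invR (S.pow_mem (S.mul_mem k1.1 k1.1) _) a1 (by
      rw [e4]
      calc _ = g⁻¹ * (s * (g * (t * t) * g⁻¹) * s⁻¹) * g := by group
        _ = 1 := by rw [h.tt]; group) with e5 | e5
    · rw [e5] at e3
      exact absurd (by simpa using e3.symm) h.t1
    · rw [e5] at e3
      exact (mul_inv_eq_iff_eq_mul.1 e3.symm).symm) (by rw [conj_mul, h.tt]; group)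
    (by simpa using h.t1)
  have e6 : x = t := by simpa using g1.trans e.symm
  exact h.h0 (h.uniq ax (e6 ▸ h.at')).2

/-- the case of an outer conjugate `y` of `t` with `y x` not conjugate to `t` -/
theorem caseB (hab : commutator G = ⊤)
    {y : G} {m : ZMod N} (hy : y ∈ S) (a : Act c j y (-1) (2 * m + 1)) (ty : IsConj t y)
    (nc : ¬ IsConj t (y * r)) : False := by
  have nx := h.not_conj h2 hr ar r2 hf' fr
  have y2 : y * y = 1 := by
    obtain ⟨g, rfl⟩ := isConj_iff.1 ty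
    rw [conj_mul, h.tt]; group
  have yi : y⁻¹ = y := inv_eq_of_mul_eq_one_right y2
  have yr := h.inv_root h2 hr ar r2 hf' fr hy a
  have ayr : Act c j (y * r) (-1) (2 * m + 1) := by simpa using h.amul a ar
  have nc' : ∀ b r', r' = r ∨ r' = r * t → ¬ IsConj t (c b * (y * r')) := by
    rintro b r' (rfl | rfl) e
    · exact nc (e.trans (h.conj_odd ayr b).symm)
    · rw [← mul_assoc y, (h.cen (S.mul_mem hy hr)).eq, ← mul_assoc,
        show c b * t = c (b + hf N) by rw [h.add, h.ch]] at e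
      exact nc (e.trans (h.conj_odd ayr _).symm)
  have hR : ∀ {ρ}, ρ ∈ S → Act c j ρ 1 0 → (ρ = 1 ∨ ρ = t) ∨ (ρ = r ∨ ρ = r * t) := by
    intro ρ hρ aρ
    rcases h.chain hρ aρ with e | e | e | ⟨n, e⟩
    · exact Or.inl (Or.inl e)
    · exact Or.inl (Or.inr e)
    · exact Or.inr (h.root_or hr hρ ar aρ r2 e)
    exfalso
    have h1 := S.pow_mem hρ n
    have a1 := h.aRpow aρ n
    generalize ρ ^ n = σ at *
    have e1 := h.root_or hr (S.mul_mem h1 h1) ar (h.aR a1 a1) r2 e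
    have h3 := S.mul_mem (S.mul_mem hy h1) (S.inv_mem hy)
    have a3 : Act c j (y * σ * y⁻¹) 1 0 := by simpa using h.aconj a a1
    have e2 : y * (σ * σ) * y⁻¹ = σ * σ * t := by
      rcases e1 with e1 | e1
      · rw [e1, yr]
      · rw [e1, ← conj_mul, yr, (h.cen hy).eq, mul_inv_cancel_right]
    have e3 := h.invR (S.mul_mem h3 h1) (h.aR a3 a1) (by
      rw [← pow_two, (h.comR h3 h1 a3 a1).mul_pow, pow_two, pow_two, conj_mul, e2,
        (h.cen (S.mul_mem h1 h1)).eq, mul_assoc, e, h.tt])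
    have e4 : σ⁻¹ * y * σ⁻¹⁻¹ = y * (σ * (y * σ * y⁻¹ * σ)⁻¹ * σ) := by
      rw [yi]
      calc _ = y * (σ * σ⁻¹ * (y * σ⁻¹ * y) * σ) := by
            rw [mul_inv_cancel, one_mul, ← mul_assoc, ← mul_assoc, ← mul_assoc, y2]; group
        _ = _ := by rw [mul_inv_rev, mul_inv_rev, mul_inv_rev, yi]; group
    have e5 : σ * (y * σ * y⁻¹ * σ)⁻¹ * σ = r ∨ σ * (y * σ * y⁻¹ * σ)⁻¹ * σ = r * t := by
      rcases e3 with e3 | e3
      · rwa [e3, inv_one, mul_one]
      · rw [e3, h.ti, mul_assoc, ← (h.cen h1).eq, ← mul_assoc]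
        rcases e1 with e1 | e1
        · exact Or.inr (by rw [e1])
        · exact Or.inl (by rw [e1, mul_assoc, h.tt, mul_one])
    refine nc' 0 _ e5 ?_
    rw [h.c0, one_mul, ← e4]
    exact ty.trans (isConj_iff.2 ⟨_, rfl⟩)
  let Q : Subgroup G :=
    { carrier := {s | ∃ b, s = c b ∨ s = c b * j}
      mul_mem' := by
        rintro _ _ ⟨b, rfl | rfl⟩ ⟨b', rfl | rfl⟩
        · exact ⟨b + b', Or.inl (h.add _ _).symm⟩
        · exact ⟨b + b', Or.inr (by rw [h.add, mul_assoc])⟩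
        · exact ⟨b + -b', Or.inr (by rw [h.add, mul_assoc, h.jc', mul_assoc])⟩
        · exact ⟨b + -b' + hf N, Or.inl (by
            rw [h.add, h.add, h.ch, ← h.jj, mul_assoc, ← mul_assoc j, h.jc']; group)⟩
      one_mem' := ⟨0, Or.inl h.c0.symm⟩
      inv_mem' := by
        rintro _ ⟨b, rfl | rfl⟩
        · exact ⟨-b, Or.inl (h.cneg b).symm⟩
        · exact ⟨hf N + b, Or.inr (by
            rw [h.add, h.ch, mul_assoc, ← h.wsq b, eq_comm, ← mul_inv_eq_one, inv_inv, mul_assoc,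
              h.wsq, h.tt])⟩ }
  have QS' : ∀ {u}, u ∈ Q → u ∈ S := by
    rintro _ ⟨b, rfl | rfl⟩
    exacts [h.cS b, S.mul_mem (h.cS b) h.jS]
  have Qn : ∀ {s u}, s ∈ S → u ∈ Q → s * u * s⁻¹ ∈ Q := by
    rintro s _ hs ⟨b, rfl | rfl⟩ <;> obtain ⟨i, m, a⟩ := h.act hs
    exacts [⟨_, Or.inl (a.onc b)⟩, ⟨_, Or.inr (h.onw a b)⟩]
  have cQ : ∀ b, c b ∈ Q := fun b => ⟨b, Or.inl rfl⟩
  have tQ : t ∈ Q := h.ch ▸ cQ _
  -- the elements inducing `± 1`
  have odd : ∀ {s i b}, s ∈ S → Act c j s i (2 * b + 1) → ∃ b', Act c j (s * y) (-i) (2 * b') := by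
    intro s i b hs a'
    have e : ∀ m b k : ZMod N, k * k = 1 → ∃ b', 2 * b + 1 + k * (2 * m + 1) = 2 * b' := by
      rcases h.hN with rfl | rfl <;> decide +kernel
    obtain ⟨b', e⟩ := e m b i (h.unit a')
    exact ⟨b', by simpa [e] using h.amul a' a⟩
  have ev : ∀ {s i b}, s ∈ S → Act c j s i (2 * b) → i = 1 ∨ i = -1 →
      ∃ u ∈ Q, s = u ∨ s = u * r := by
    intro s i b hs a' hi
    obtain ⟨u, hu, ρ, h1, h3, rfl⟩ : ∃ u ∈ Q, ∃ ρ ∈ S, Act c j ρ 1 0 ∧ s = u * ρ := by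
      rcases hi with rfl | rfl
      · exact ⟨_, cQ b, h.split_c hs a'⟩
      · exact ⟨_, ⟨b, Or.inr rfl⟩, h.split_w hs a'⟩
    rcases hR h1 h3 with (rfl | rfl) | rfl | rfl
    · exact ⟨u, hu, Or.inl (mul_one u)⟩
    · exact ⟨_, Q.mul_mem hu tQ, Or.inl rfl⟩
    · exact ⟨u, hu, Or.inr rfl⟩
    · exact ⟨u * t, Q.mul_mem hu tQ, Or.inr (by rw [(h.cen hr).eq, mul_assoc])⟩
  let M : Subgroup S :=
    { carrier := {s | (s : G) ∈ Q ∨ (s : G) * y ∈ Q}
      mul_mem' := by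
        rintro s s' (e | e) (e' | e')
        · exact Or.inl (Q.mul_mem e e')
        · exact Or.inr (by simpa [mul_assoc] using Q.mul_mem e e')
        · exact Or.inr (by simpa [mul_assoc] using Q.mul_mem e (Qn (S.inv_mem hy) e'))
        · refine Or.inl ?_
          have := Q.mul_mem e (Qn (S.inv_mem hy) e')
          rw [inv_inv, show (s : G) * y * (y⁻¹ * (s' * y) * y) = s * s' * (y * y) by group, y2,
            mul_one] at this
          exact this
      one_mem' := Or.inl Q.one_mem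
      inv_mem' := by
        rintro s (e | e)
        · exact Or.inl (Q.inv_mem e)
        · refine Or.inr ?_
          have := Qn hy (Q.inv_mem e)
          rw [yi, mul_inv_rev, yi, ← mul_assoc, y2, one_mul] at this
          exact this }
  have cover : ∀ s : S, (s : G) ∈ h.DD → s ∈ M ∨ s * ⟨r, hr⟩⁻¹ ∈ M := by
    rintro s ⟨-, i, μ, a', hi⟩
    rcases h.even_or μ with ⟨b, rfl⟩ | ⟨b, rfl⟩
    · obtain ⟨u, hu, e | e⟩ := ev s.2 a' hi
      · exact Or.inl (Or.inl (e ▸ hu))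
      · exact Or.inr (Or.inl (by simpa [e] using hu))
    · obtain ⟨b', a2⟩ := odd s.2 a'
      obtain ⟨u, hu, e | e⟩ := ev (S.mul_mem s.2 hy) a2 (by
        rcases hi with rfl | rfl <;> simp)
      · exact Or.inl (Or.inr (e ▸ hu))
      · refine Or.inr (Or.inr ?_)
        show (s : G) * r⁻¹ * y ∈ Q
        have : (s : G) * r⁻¹ * y = u * t := by
          calc _ = s * y * (y * r * y⁻¹)⁻¹ := by rw [mul_inv_rev, mul_inv_rev, inv_inv, yi]; rw [
                ← mul_assoc, ← mul_assoc, mul_assoc (s : G) y y, y2, mul_one]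
            _ = _ := by rw [e, yr, (h.cen hr).eq, mul_inv_rev, h.ti, (h.cen hr).inv_left.eq,
                ← (h.cen hr).inv_left.eq]; group
        rw [this]; exact Q.mul_mem hu tQ
  have inv_M : ∀ s : S, s ∈ M → (s : G) * s = 1 → (s : G) ≠ 1 → IsConj t s := by
    rintro s (⟨b, e | e⟩ | ⟨b, e | e⟩) s2 s1
    · have a' : Act c j s 1 (2 * b) := e ▸ h.ac b
      by_contra hn
      have e1 := h.hf_of s.2 a' s2 s1 fun e => hn (e ▸ IsConj.refl _)
      rw [e, ← h.add, ← two_mul, e1, h.ch] at s2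
      exact h.t1 s2
    · rw [e, h.wsq] at s2; exact absurd s2 h.t1
    · rw [eq_mul_inv_of_mul_eq e, yi]; exact ty.trans (h.conj_odd a b)
    · have a' := h.amul (h.aw b) (h.ainv a)
      rw [← eq_mul_inv_of_mul_eq e] at a'
      have := h.sq0 a' s2
      exfalso
      have e : ∀ m b : ZMod N, 2 * b + -1 * -(-1 * (2 * m + 1)) +
          -1 * -1 * (2 * b + -1 * -(-1 * (2 * m + 1))) ≠ 0 := by
        rcases h.hN with rfl | rfl <;> decide +kernel
      exact e m b this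
  have hMn : M.Normal := ⟨fun u hu s => by
    rcases hu with e | e
    · exact Or.inl (Qn s.2 e)
    obtain ⟨i, μ, a'⟩ := h.act s.2
    have h1 : (s : G) * y * (s : G)⁻¹ ∈ S := S.mul_mem (S.mul_mem s.2 hy) (S.inv_mem s.2)
    have a1 := h.amul (h.amul a' a) (h.ainv a')
    have e1 : ∀ m i μ : ZMod N, i * i = 1 → i * -1 * i = -1 ∧
        ∃ b, μ + i * (2 * m + 1) + i * -1 * -(i * μ) = 2 * b + 1 := by
      rcases h.hN with rfl | rfl <;> decide +kernel
    obtain ⟨e1, b, e2⟩ := e1 m i μ (h.unit a')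
    rw [e1, e2] at a1
    obtain ⟨b', a2⟩ := odd h1 a1
    rw [neg_neg] at a2
    obtain ⟨ρ, k1, k2, k3⟩ := h.split_c (S.mul_mem h1 hy) a2
    have k4 : (s : G) * y * (s : G)⁻¹ * y ∈ Q := by
      rcases hR k1 k2 with (rfl | rfl) | k4
      · rw [k3, mul_one]; exact cQ _
      · rw [k3]; exact Q.mul_mem (cQ _) tQ
      · refine (nc' b' (y * ρ * y⁻¹) ?_ ?_).elim
        · rcases k4 with rfl | rfl
          · exact Or.inr yr
          · exact Or.inl (by rw [← conj_mul, yr, (h.cen hy).eq, mul_inv_cancel_right, mul_assoc,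
              h.tt, mul_one])
        · rw [← mul_assoc y, ← mul_assoc y, y2, one_mul, ← mul_assoc, ← k3, mul_inv_cancel_right]
          exact ty.trans (isConj_iff.2 ⟨_, rfl⟩)
    refine Or.inr ?_
    have := Q.mul_mem (Qn s.2 e) k4
    rw [show (s : G) * (u * y) * (s : G)⁻¹ * (s * y * (s : G)⁻¹ * y) =
      s * u * (y * y) * (s : G)⁻¹ * y by group, y2, mul_one] at this
    exact this⟩
  have rM : (⟨r, hr⟩ : S) ∉ M := by
    rintro (⟨b, e | e⟩ | ⟨b, e | e⟩)
    · replace e : r = c b := e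
      have := (h.uniq ar (e ▸ h.ac b)).2
      rw [e, ← h.add, ← two_mul, ← this, h.c0] at r2
      exact h.t1 r2.symm
    · exact h.one_ne (h.uniq ar ((show r = _ from e) ▸ h.aw b)).1
    · exact h.one_ne (by simpa using (h.uniq (h.amul ar a) (e ▸ h.ac b)).1.symm)
    · exact h.not_even m b (by simpa using (h.uniq (h.amul ar a) (e ▸ h.aw b)).2)
  let φ := QuotientGroup.mk' M
  have φ1 : ∀ s, φ s = 1 ↔ s ∈ M := fun s => QuotientGroup.eq_one_iff s
  have cenr : ∀ s : S, Commute (φ s) (φ ⟨r, hr⟩) := fun s => by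
    obtain ⟨i, μ, a'⟩ := h.act s.2
    rw [← commutatorElement_eq_one_iff_commute, ← map_commutatorElement, φ1]
    refine Or.inl ?_
    show (s : G) * r * (s : G)⁻¹ * r⁻¹ ∈ Q
    rcases h.root_or hr (S.mul_mem (S.mul_mem s.2 hr) (S.inv_mem s.2)) ar
      (by simpa using h.aconj a' ar) r2 (by rw [conj_mul, r2, (h.cen s.2).eq]; group) with e | e
    · rw [e, mul_inv_cancel]; exact Q.one_mem
    · rw [e, (h.cen hr).eq, mul_inv_cancel_right]; exact tQ
  have cover' : ∀ s : S, (s : G) ∈ h.DD → φ s = 1 ∨ φ s = φ ⟨r, hr⟩ := fun s hs =>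
    (cover s hs).imp (φ1 s).2 fun e => by rw [← mul_inv_eq_one, ← map_inv, ← map_mul, φ1]; exact e
  have cenD : ∀ s s' : S, (s : G) ∈ h.DD → Commute (φ s') (φ s) := fun s s' hs => by
    rcases cover' s hs with e | e
    · rw [e]; exact Commute.one_right _
    · rw [e]; exact cenr s'
  let : CommGroup (S ⧸ M) := ⟨fun u v => by
    obtain ⟨s, rfl⟩ := QuotientGroup.mk'_surjective M u
    obtain ⟨s', rfl⟩ := QuotientGroup.mk'_surjective M v
    by_cases h1 : (s' : G) ∈ h.DD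
    · exact cenD s' s h1
    by_cases h3 : (s : G) ∈ h.DD
    · exact (cenD s s' h3).symm
    obtain ⟨i, μ, a1⟩ := h.act s.2
    obtain ⟨i', μ', a2⟩ := h.act s'.2
    rw [h.mem_DD s'.2 a2, not_or] at h1
    rw [h.mem_DD s.2 a1] at h3
    have := cenD (s⁻¹ * s') s ((h.mem_DD (s⁻¹ * s').2 (h.amul (h.ainv a1) a2)).2 (by
      by_contra h4
      exact h3 ((h.ar2 (h.unit a2) h1.1 h1.2 (h.unit a1)).2 h4)))
    have := (Commute.refl (φ s)).mul_right this
    rwa [← map_mul, mul_inv_cancel_left] at this⟩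
  set x := c (qt N) * r with hx
  have x2 : x * x = 1 := by
    rw [← pow_two, (h.cR ar _).symm.mul_pow, pow_two, pow_two, h.aa, r2, h.tt]
  have r2' : φ ⟨r, hr⟩ * φ ⟨r, hr⟩ = 1 := by
    rw [← map_mul, φ1]; exact Or.inl (by rw [coe_mul, r2]; exact tQ)
  have key := Transfer.transfer_eq_pow_of_forall φ x (φ ⟨r, hr⟩) fun g k hk => by
    rcases Nat.even_or_odd' k with ⟨n, rfl | rfl⟩
    · simp only [pow_mul, pow_two, x2, r2', one_pow, mul_one, inv_mul_cancel]
      exact φ.map_one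
    · simp only [pow_succ, pow_mul, pow_zero, one_mul, x2, r2', one_pow] at hk ⊢
      have s2 : g⁻¹ * x * g * (g⁻¹ * x * g) = 1 := by
        rw [show g⁻¹ * x * g * (g⁻¹ * x * g) = g⁻¹ * (x * x) * g by group, x2]; group
      obtain ⟨i, μ, a'⟩ := h.act hk
      refine (cover' ⟨_, hk⟩ ((h.mem_DD hk a').2 (h.nf h2 hk s2 a'))).resolve_left fun e => ?_
      refine nx ((inv_M _ ((φ1 _).1 e) s2 fun e1 => ?_).trans (isConj_iff.2 ⟨g, by simp [mul_assoc]⟩))
      have : x = 1 := by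
        rw [show x = g * (g⁻¹ * x * g) * g⁻¹ by group, show g⁻¹ * x * g = 1 from e1]; group
      have ax := h.amul (h.ac (qt N)) ar
      rw [mul_one, mul_zero, add_zero, two_mul, h.qq, ← hx, this] at ax
      exact h.h0 (h.uniq ax h.aone).2
  obtain ⟨n, hn⟩ := h.odd_index
  rw [MonoidHom.mem_ker.1 (Abelianization.commutator_subset_ker (MonoidHom.transfer φ)
    (hab ▸ mem_top x)), hn, pow_succ, pow_mul, pow_two, r2', one_pow, one_mul] at key
  exact rM ((φ1 _).1 key.symm)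

end

theorem no_e3 (hab : commutator G = ⊤) (hz : ∃ g, Commute (g * t * g⁻¹) t ∧ g * t * g⁻¹ ≠ t)
    {u v : G} (E : E3 S t u v) : False := by
  obtain ⟨x, f, m, xS, x2, ax, fS, af, cx⟩ : ∃ x f m, x ∈ S ∧ x * x = 1 ∧ Act c j x 1 (hf N) ∧
      f ∈ S ∧ Act c j f (-1) m ∧ Commute f x := by
    rcases h.e3_hf h2 E with ⟨a, m, b⟩ | ⟨a, m, b⟩ | ⟨a, m, b⟩
    · exact ⟨u, v, m, E.uS, E.u2, a, E.vS, b, E.cm.symm⟩
    · exact ⟨v, u, m, E.vS, E.v2, a, E.uS, b, E.cm⟩
    · exact ⟨u * v, u, m, S.mul_mem E.uS E.vS, by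
        rw [← pow_two, E.cm.mul_pow, pow_two, pow_two, E.u2, E.v2, one_mul], a, E.uS, b,
        (Commute.refl u).mul_right E.cm⟩
  obtain ⟨r, hr, ar, r2, rfl⟩ := h.root xS ax x2
  have inva : ∀ {y m}, Act c j y (-1) m → y * c (qt N) * y⁻¹ = c (qt N) * t := fun {y m} a => by
    rw [a.onc, ← h.ch, ← h.add, ← h.qq]; congr 1; linear_combination -(h.hh) - 2 * h.qq
  have fr : f * r * f⁻¹ = r * t := by
    have e := mul_inv_eq_iff_eq_mul.2 cx.eq
    rw [← conj_mul, inva af, mul_assoc, mul_left_cancel_iff] at e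
    rw [(h.cen hr).eq]
    exact (mul_left_cancel (a := t) (by rw [e, ← mul_assoc, h.tt, one_mul]))
  have nx := h.not_conj h2 hr ar r2 fS fr
  set x := c (qt N) * r with hx
  have nx' : ∀ {y}, y ∈ S → Act c j y 1 (hf N) → y * y = 1 → ¬ IsConj t y := fun hy a y2 e =>
    nx (e.trans (h.conj_hf xS ax x2 hy a y2).symm)
  obtain ⟨y, hy, ty, yt⟩ : ∃ y ∈ S, IsConj t y ∧ y ≠ t := by
    obtain ⟨g, g1, g2⟩ := hz
    have : orderOf (g * t * g⁻¹) = 2 ^ 1 :=
      orderOf_eq_prime (p := 2) (by rw [pow_two, conj_mul, h.tt]; group) (by simpa using h.t1)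
    obtain ⟨k, k1, k2⟩ := h.syl (zpowers (g * t * g⁻¹))
      (IsPGroup.of_card ((Nat.card_zpowers _).trans this)) (by
        rintro _ ⟨n, rfl⟩; exact g1.zpow_left n)
    refine ⟨_, k2 _ (mem_zpowers _), isConj_iff.2 ⟨k * g, by group⟩, fun e => g2 ?_⟩
    rw [mul_inv_eq_iff_eq_mul, ← k1.eq] at e
    exact mul_left_cancel e
  have y2 : y * y = 1 := by
    obtain ⟨g, rfl⟩ := isConj_iff.1 ty
    rw [conj_mul, h.tt]; group
  have y1 : y ≠ 1 := by rintro rfl; exact h.t1 (isConj_one_left.1 ty)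
  obtain ⟨i, μ, a⟩ := h.act hy
  rcases h.nf h2 hy y2 a with rfl | rfl
  · exact nx' hy (h.hf_of hy a y2 y1 yt ▸ a) y2 ty
  rcases h.even_or μ with ⟨b, rfl⟩ | ⟨b, rfl⟩
  · exact nx (ty.trans (h.conj_even xS ax x2 hy a y2).symm)
  have yr := h.inv_root h2 hr ar r2 fS fr hy a
  have cy : Commute y x := mul_inv_eq_iff_eq_mul.1 (by
    rw [hx, ← conj_mul, inva a, yr, (h.cen hr).eq, mul_assoc, ← mul_assoc t, h.tt, one_mul])
  by_cases hc : IsConj t (y * r)
  swap
  · exact h.caseB h2 hr ar r2 fS fr hab hy a ty hc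
  have ayr : Act c j (y * r) (-1) (2 * b + 1) := by simpa using h.amul a ar
  have e1 : ∀ b, IsConj t (c b * (y * r)) := fun b => hc.trans (h.conj_odd ayr b)
  have e2 : y * x = c (qt N + hf N) * (y * r) := by
    rw [h.add, h.ch, ← inva a, hx]; group
  have c1 : IsConj t (x * y) := by rw [← cy.eq, e2]; exact e1 _
  have c2 : IsConj t (t * x * y) := by
    rw [mul_assoc, ← cy.eq, e2, ← mul_assoc, show t * c (qt N + hf N) = c (hf N + (qt N + hf N)) by
      rw [h.add (hf N), h.ch]]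
    exact e1 _
  obtain ⟨g, g1, g2⟩ := h.exists_move ty
  have cj : ∀ z, IsConj z (g * z * g⁻¹) := fun z => isConj_iff.2 ⟨g, rfl⟩
  have axt : Act c j (t * x) 1 (hf N) := by simpa using h.amul h.at' ax
  have xt2 : t * x * (t * x) = 1 := by
    rw [← pow_two, (h.cen xS).symm.mul_pow, pow_two, pow_two, h.tt, x2, one_mul]
  have n1 := nx' (S.mul_mem h.tS xS) axt xt2
  have hu := g2 t h.tS (h.cen hy).symm
  have hv := g2 x xS cy.symm
  have E' : E3 S t (g * t * g⁻¹) (g * x * g⁻¹) := ⟨hu, hv, by rw [conj_mul, h.tt]; group,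
    by rw [conj_mul, x2]; group, (h.cen xS).symm.conj g, by simpa using h.t1,
    fun e => yt (by simpa using g1.trans e.symm), fun e => h.h0 (h.uniq ax (by
      rw [show x = 1 by simpa using e]; exact h.aone)).2, fun e => nx (e ▸ cj x).symm,
    fun e => h.h0 (h.uniq axt (by
      rw [conj_mul] at e; rw [show t * x = 1 by simpa using e]; exact h.aone)).2,
    fun e => n1 (by rw [conj_mul] at e; exact (e ▸ cj _).symm)⟩
  have fin : ∀ z, g * z * g⁻¹ ∈ S → z * z = 1 → Act c j (g * z * g⁻¹) 1 (hf N) →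
      ¬ IsConj t (z * y) := fun z hz z2 az e => by
    have z2' : g * z * g⁻¹ * (g * z * g⁻¹) = 1 := by rw [conj_mul, z2]; group
    refine nx' (S.mul_mem hz h.tS) (by simpa using h.amul az h.at') (by
      rw [← pow_two, (h.cen hz).mul_pow, pow_two, pow_two, h.tt, z2', one_mul]) ?_
    have := e.trans (cj _)
    rwa [← conj_mul, g1] at this
  rcases h.e3_hf h2 E' with ⟨a', -⟩ | ⟨a', -⟩ | ⟨a', -⟩
  · exact nx' hu a' E'.u2 (cj t)
  · exact fin x hv x2 a' c1
  · rw [conj_mul] at a'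
    exact fin _ (conj_mul (a := t) ▸ S.mul_mem hu hv) xt2 a' c2

end QS

end Cfsg.Agent.LyMc
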